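import Cfsg.Agent.Base
import Cfsg.Agent.Lib.Char.BrauerInd

/-!
Characters realizable over a subfield of the complex numbers; Brauer's splitting field theorem.
-/

set_option autoImplicit false

namespace H8

open Cfsg Representation Module

universe u v w

variable {G : Type u} [Group G] {K : Type v} [Field K] (ι : K →+* ℂ)

/-- `χ` is the character of a representation over `K` -/
def Realizable (χ : G → ℂ) : Prop :=
  ∃ (n : ℕ) (ρ : Representation K G (Fin n → K)), ∀ g, ι (ρ.character g) = χ g

theorem realizable_character {V : Type w} [AddCommGroup V] [Module K V] [FiniteDimensional K V]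
    (ρ : Representation K G V) : Realizable ι fun g => ι (ρ.character g) := by
  obtain ⟨σ, ⟨e⟩⟩ := H6.exists_equiv_fin ρ
  exact ⟨_, σ, fun g => by rw [char_iso e]⟩

/-- extension of scalars of a matrix representation -/
noncomputable def extRep {n : ℕ} (ρ : Representation K G (Fin n → K)) :
    Representation ℂ G (Fin n → ℂ) :=
  H7.repOfMatrix (ι.mapMatrix.toMonoidHom.comp (H7.matrixOfRep ρ))

theorem toMatrix'_extRep {n : ℕ} (ρ : Representation K G (Fin n → K)) (g : G) (i j : Fin n) :
    LinearMap.toMatrix' (extRep ι ρ g) i j = ι (LinearMap.toMatrix' (ρ g) i j) := by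
  simp [extRep, H7.repOfMatrix_apply, H7.matrixOfRep_apply]

theorem character_extRep {n : ℕ} (ρ : Representation K G (Fin n → K)) (g : G) :
    (extRep ι ρ).character g = ι (ρ.character g) := by
  rw [extRep, H7.character_repOfMatrix, ← H7.trace_matrixOfRep]
  simp [Matrix.trace]

variable {ι}

theorem Realizable.isCharacter {χ : G → ℂ} (h : Realizable ι χ) : IsCharacter G χ := by
  obtain ⟨n, ρ, h⟩ := h
  rw [show χ = (extRep ι ρ).character from funext fun g => by rw [character_extRep, h]]
  exact H6.isCharacter_character _

theorem Realizable.exists_equiv [Finite G] {n : ℕ} {ρ : Representation ℂ G (Fin n → ℂ)}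
    (h : Realizable ι ρ.character) : ∃ σ : Representation ℂ G (Fin n → ℂ), Nonempty (ρ.Equiv σ) ∧
      ∀ g i j, LinearMap.toMatrix' (σ g) i j ∈ ι.range := by
  obtain ⟨m, σ, h⟩ := h
  obtain rfl : m = n := by simpa using h 1
  exact ⟨extRep ι σ, H6.equiv_of_character_eq _ _ (funext fun g => by rw [character_extRep, h]),
    fun g i j => ⟨_, (toMatrix'_extRep ι σ g i j).symm⟩⟩

theorem realizable_zero : Realizable ι (0 : G → ℂ) :=
  ⟨0, Representation.trivial K G _, fun g => by simp [Representation.character]⟩

theorem Realizable.add {χ ψ : G → ℂ} (h : Realizable ι χ) (h' : Realizable ι ψ) :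
    Realizable ι (χ + ψ) := by
  obtain ⟨n, ρ, h⟩ := h
  obtain ⟨m, σ, h'⟩ := h'
  have := realizable_character ι (ρ.prod σ)
  simp only [H6.character_prod, Pi.add_apply, map_add, h, h'] at this
  exact this

theorem classInner_character_map [Fintype G] {V W : Type*} [AddCommGroup V] [Module K V]
    [FiniteDimensional K V] [AddCommGroup W] [Module K W] [FiniteDimensional K W]
    (ρ : Representation K G V) (σ : Representation K G W) :
    classInner (fun g => ι (σ.character g)) (fun g => ι (ρ.character g)) =
      finrank K (IntertwiningMap ρ σ) := by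
  have := ι.charZero
  have : Invertible (Nat.card G : K) := invertibleOfNonzero (Nat.cast_ne_zero.2 Nat.card_pos.ne')
  have h := congrArg ι (card_inv_mul_sum_char_mul_char_eq_finrank ρ σ)
  rw [map_natCast] at h
  rw [← h, H6.classInner_def]
  simp only [map_mul, map_inv₀, map_natCast, map_sum]
  congr 1
  refine Finset.sum_congr rfl fun g _ => ?_
  rw [← H6.char_inv (realizable_character ι ρ).isCharacter]

theorem realizable_cancel_aux [Fintype G] (n : ℕ) : ∀ {V : Type v} [AddCommGroup V] [Module K V]
    [FiniteDimensional K V] (ρ : Representation K G V), finrank K V = n → ∀ {χ : G → ℂ},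
    IsCharacter G χ → Realizable ι (χ + fun g => ι (ρ.character g)) → Realizable ι χ := by
  induction n using Nat.strong_induction_on with
  | _ n ih =>
  intro V _ _ _ ρ hn χ hχ h
  have := ι.charZero
  have : NeZero (Nat.card G : K) := ⟨Nat.cast_ne_zero.2 Nat.card_pos.ne'⟩
  rcases subsingleton_or_nontrivial V with hV | hV
  · convert h using 1
    funext g
    simp [Representation.character, Subsingleton.elim (ρ g) 0]
  obtain ⟨m, σ, h⟩ := h
  obtain ⟨U, hU⟩ := H6.exists_irreducible_subrep ρ
  obtain ⟨U', hUU'⟩ := exists_isCompl U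
  have hUn := H6.nontrivial_of_isIrreducible U.toRepresentation
  have h2 : Nontrivial (IntertwiningMap U.toRepresentation ρ) := by
    refine ⟨H6.subrepIncl U, 0, fun h0 => ?_⟩
    obtain ⟨x, hx⟩ := exists_ne (0 : U.toSubmodule)
    have : (H6.subrepIncl U) x = 0 := by rw [h0]; rfl
    exact hx (Subtype.ext this)
  have h3 : Nontrivial (IntertwiningMap U.toRepresentation σ) := by
    have a := classInner_character_map (ι := ι) U.toRepresentation σ
    have b := classInner_character_map (ι := ι) U.toRepresentation ρ
    obtain ⟨k, c⟩ := H6.char_inner_nat hχ (realizable_character ι U.toRepresentation).isCharacter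
    rw [show (fun g => ι (σ.character g)) = _ from funext h, H6.classInner_add_left, b, c] at a
    have d : k + finrank K (IntertwiningMap U.toRepresentation ρ) =
      finrank K (IntertwiningMap U.toRepresentation σ) := by exact_mod_cast a
    have e := (Module.finrank_pos_iff (R := K)).2 h2
    rw [← Module.finrank_pos_iff (R := K)]
    omega
  obtain ⟨f, hf⟩ := exists_ne (0 : IntertwiningMap U.toRepresentation σ)
  have hinj : Function.Injective f := (IsIrreducible.injective_or_eq_zero f).resolve_right hf
  obtain ⟨T', hTT'⟩ := exists_isCompl f.range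
  have hlt : finrank K U'.toSubmodule < n := by
    have := Submodule.finrank_add_eq_of_isCompl (H6.subrep_isCompl hUU')
    have : 0 < finrank K U.toSubmodule := Module.finrank_pos
    omega
  refine ih _ hlt U'.toRepresentation rfl hχ ?_
  convert realizable_character ι T'.toRepresentation using 1
  funext g
  have a := h g
  rw [H6.character_of_isCompl hTT', ← char_iso (H6.equivRange f hinj),
    H6.character_of_isCompl hUU'] at a
  simp only [Pi.add_apply, map_add] at a ⊢
  linear_combination -a

theorem Realizable.cancel [Finite G] {χ β : G → ℂ} (hχ : IsCharacter G χ) (hβ : Realizable ι β)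
    (h : Realizable ι (χ + β)) : Realizable ι χ := by
  have := Fintype.ofFinite G
  obtain ⟨n, ρ, e⟩ := hβ
  obtain rfl : (fun g => ι (ρ.character g)) = β := funext e
  exact realizable_cancel_aux _ ρ rfl hχ h

theorem realizable_indFun_hom [Fintype G] (H : Subgroup G) (lam : H →* ℂˣ)
    (h : ∀ x, (lam x : ℂ) ∈ ι.range) : Realizable ι (indFun H fun x => (lam x : ℂ)) := by
  classical
  choose f hf using h
  let φ : H →* K :=
    { toFun := f
      map_one' := ι.injective (by simp [hf])
      map_mul' := fun a b => ι.injective (by simp [hf]) }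
  have := Fintype.ofFinite (G ⧸ H)
  convert realizable_character ι (H7.repOfMatrix (H7.indHom H φ)) using 1
  funext g
  rw [H7.character_repOfMatrix, H7.trace_indHom, map_sum,
    H7.indFun_eq_sum_quotient H (H7.isClassFunction_hom lam)]
  refine Finset.sum_congr rfl fun q _ => ?_
  rw [H7.map_ext0 H _ ι (map_zero ι), H7.ext0_eq_extendByZero]
  congr 1
  exact funext fun x => (hf x).symm

/-- Brauer's splitting field theorem -/
theorem realizable_of_roots [Finite G]
    (hι : ∀ z : ℂ, z ^ Monoid.exponent G = 1 → z ∈ ι.range) {χ : G → ℂ} (hχ : IsCharacter G χ) :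
    Realizable ι χ := by
  have := Fintype.ofFinite G
  have key : ∀ {P : Subgroup G → Prop} {f : G → ℂ}, f ∈ monoSpan P →
      ∃ α β, Realizable ι α ∧ Realizable ι β ∧ f + β = α := fun hf => by
    induction hf using AddSubgroup.closure_induction with
    | zero => exact ⟨0, 0, realizable_zero, realizable_zero, add_zero _⟩
    | add f g _ _ hf hg =>
      obtain ⟨α, β, h1, h2, rfl⟩ := hf
      obtain ⟨γ, δ, h3, h4, rfl⟩ := hg
      exact ⟨_, _, h1.add h3, h2.add h4, by abel⟩
    | neg f _ hf =>
      obtain ⟨α, β, h1, h2, rfl⟩ := hf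
      exact ⟨_, _, h2, h1, by abel⟩
    | mem f hf =>
      obtain ⟨E, μ, -, rfl⟩ := hf
      refine ⟨_, 0, realizable_indFun_hom E μ fun x => hι _ ?_, realizable_zero, add_zero _⟩
      rw [← Units.val_pow_eq_pow_val, ← map_pow, show x ^ Monoid.exponent G = 1 from
        Subtype.ext (Monoid.pow_exponent_eq_one (x : G)), map_one, Units.val_one]
  obtain ⟨α, β, h1, h2, rfl⟩ := key (mem_monoSpan_elementary (H6.char_isGen hχ))
  exact Realizable.cancel hχ h2 h1

end H8
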